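import Mathlib

set_option autoImplicit false

namespace Cfsg.Agent.Lib.Helper29.SympConj

variable {G : Type*} [Group G]

/-- elementwise facts about `Q = F*(C(z))` of symplectic type with exponent dividing four -/
structure Good (Q : Subgroup G) (z : G) : Prop where
  z_mem : z ∈ Q
  z_ne : z ≠ 1
  z_sq : z * z = 1
  comm_z : ∀ x ∈ Q, x * z = z * x
  norm : ∀ h : G, h * z = z * h → ∀ x ∈ Q, h * x * h⁻¹ ∈ Q
  cent : ∀ h : G, h * z = z * h → (∀ x ∈ Q, h * x = x * h) → h ∈ Q
  sq : ∀ x ∈ Q, x * x = 1 ∨ x * x = z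
  comm : ∀ x ∈ Q, ∀ y ∈ Q, x * y = y * x ∨ x * y = y * x * z
  cen_inv : ∀ w ∈ Q, (∀ x ∈ Q, w * x = x * w) → w * w = 1 → w = 1 ∨ w = z

theorem Good.conj {Q : Subgroup G} {z : G} (hQ : Good Q z) (k : G) (B : Subgroup G)
    (hB : ∀ x, x ∈ B ↔ k⁻¹ * x * k ∈ Q) : Good B (k * z * k⁻¹) := by
  have e0 : k⁻¹ * (k * z * k⁻¹) * k = z := by group
  have hback : ∀ t s : G, k⁻¹ * t * k = s → t = k * s * k⁻¹ := by
    intro t s h; rw [← h]; group
  have hcz : ∀ h : G, h * (k * z * k⁻¹) = (k * z * k⁻¹) * h → (k⁻¹ * h * k) * z = z * (k⁻¹ * h * k) := by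
    intro h hh
    calc (k⁻¹ * h * k) * z = k⁻¹ * (h * (k * z * k⁻¹)) * k := by group
      _ = k⁻¹ * ((k * z * k⁻¹) * h) * k := by rw [hh]
      _ = z * (k⁻¹ * h * k) := by group
  have hmem : ∀ x ∈ Q, k * x * k⁻¹ ∈ B := by
    intro x hx
    rw [hB]
    have : k⁻¹ * (k * x * k⁻¹) * k = x := by group
    rw [this]; exact hx
  refine ⟨?_, ?_, ?_, ?_, ?_, ?_, ?_, ?_, ?_⟩
  · rw [hB, e0]; exact hQ.z_mem
  · exact fun h => hQ.z_ne (conj_eq_one_iff.mp h)
  · calc k * z * k⁻¹ * (k * z * k⁻¹) = k * (z * z) * k⁻¹ := by group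
      _ = 1 := by rw [hQ.z_sq, mul_one, mul_inv_cancel]
  · intro x hx
    have h1 := hQ.comm_z _ ((hB x).mp hx)
    calc x * (k * z * k⁻¹) = k * ((k⁻¹ * x * k) * z) * k⁻¹ := by group
      _ = k * (z * (k⁻¹ * x * k)) * k⁻¹ := by rw [h1]
      _ = (k * z * k⁻¹) * x := by group
  · intro h hh x hx
    rw [hB] at hx ⊢
    have e : k⁻¹ * (h * x * h⁻¹) * k = (k⁻¹ * h * k) * (k⁻¹ * x * k) * (k⁻¹ * h * k)⁻¹ := by group
    rw [e]
    exact hQ.norm _ (hcz h hh) _ hx
  · intro h hh hc
    rw [hB]
    apply hQ.cent _ (hcz h hh)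
    intro x hx
    have h2 := hc _ (hmem x hx)
    calc (k⁻¹ * h * k) * x = k⁻¹ * (h * (k * x * k⁻¹)) * k := by group
      _ = k⁻¹ * ((k * x * k⁻¹) * h) * k := by rw [h2]
      _ = x * (k⁻¹ * h * k) := by group
  · intro x hx
    have e : (k⁻¹ * x * k) * (k⁻¹ * x * k) = k⁻¹ * (x * x) * k := by group
    rcases hQ.sq _ ((hB x).mp hx) with h | h
    · left; rw [e] at h; rw [hback _ _ h]; group
    · right; rw [e] at h; rw [hback _ _ h]
  · intro x hx y hy
    rcases hQ.comm _ ((hB x).mp hx) _ ((hB y).mp hy) with h | h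
    · left
      calc x * y = k * ((k⁻¹ * x * k) * (k⁻¹ * y * k)) * k⁻¹ := by group
        _ = k * ((k⁻¹ * y * k) * (k⁻¹ * x * k)) * k⁻¹ := by rw [h]
        _ = y * x := by group
    · right
      calc x * y = k * ((k⁻¹ * x * k) * (k⁻¹ * y * k)) * k⁻¹ := by group
        _ = k * ((k⁻¹ * y * k) * (k⁻¹ * x * k) * z) * k⁻¹ := by rw [h]
        _ = y * x * (k * z * k⁻¹) := by group
  · intro w hw hc hww
    have hc' : ∀ x ∈ Q, (k⁻¹ * w * k) * x = x * (k⁻¹ * w * k) := by
      intro x hx
      have h2 := hc _ (hmem x hx)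
      calc (k⁻¹ * w * k) * x = k⁻¹ * (w * (k * x * k⁻¹)) * k := by group
        _ = k⁻¹ * ((k * x * k⁻¹) * w) * k := by rw [h2]
        _ = x * (k⁻¹ * w * k) := by group
    have hww' : (k⁻¹ * w * k) * (k⁻¹ * w * k) = 1 := by
      calc (k⁻¹ * w * k) * (k⁻¹ * w * k) = k⁻¹ * (w * w) * k := by group
        _ = 1 := by rw [hww]; group
    rcases hQ.cen_inv _ ((hB w).mp hw) hc' hww' with h | h
    · left; rw [hback _ _ h]; group
    · right; rw [hback _ _ h]

/-- congruence modulo `{1, z}` -/
def Rz (z u v : G) : Prop := u = v ∨ u = v * z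

theorem Rz.trans {z u v w : G} (hz2 : z * z = 1) (h1 : Rz z u v) (h2 : Rz z v w) : Rz z u w := by
  rcases h1 with h1 | h1 <;> rcases h2 with h2 | h2
  · left; rw [h1, h2]
  · right; rw [h1, h2]
  · right; rw [h1, h2]
  · left; rw [h1, h2, mul_assoc, hz2, mul_one]

theorem Rz.symm {z u v : G} (hz2 : z * z = 1) (h1 : Rz z u v) : Rz z v u := by
  rcases h1 with h1 | h1
  · left; exact h1.symm
  · right; rw [h1, mul_assoc, hz2, mul_one]

theorem Rz.mul_left {z u v : G} (c : G) (h1 : Rz z u v) : Rz z (c * u) (c * v) := by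
  rcases h1 with h1 | h1
  · left; rw [h1]
  · right; rw [h1, mul_assoc]

theorem Rz.conj {z u v : G} (t : G) (ht : t * z = z * t) (h1 : Rz z u v) :
    Rz z (t * u * t⁻¹) (t * v * t⁻¹) := by
  rcases h1 with h1 | h1
  · left; rw [h1]
  · right
    rw [h1]
    calc t * (v * z) * t⁻¹ = t * v * t⁻¹ * (t * z * t⁻¹) := by group
      _ = t * v * t⁻¹ * (z * t * t⁻¹) := by rw [ht]
      _ = t * v * t⁻¹ * z := by group


theorem core {Q : Subgroup G} {z : G} (hQ : Good Q z) (g : G)
    (ha : g * z * g⁻¹ ∈ Q) (hne : g * z * g⁻¹ ≠ z) : g⁻¹ * z * g ∈ Q := by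
  classical
  obtain ⟨b, hb⟩ : ∃ b : G, b = g⁻¹ * z * g := ⟨_, rfl⟩
  rw [← hb]
  let Q' : Subgroup G := Q.map (MulAut.conj g⁻¹).toMonoidHom
  have hQ'mem : ∀ x, x ∈ Q' ↔ g * x * g⁻¹ ∈ Q := by
    intro x
    constructor
    · rintro ⟨q, hq, rfl⟩
      have : g * ((MulAut.conj g⁻¹).toMonoidHom q) * g⁻¹ = q := by
        simp [MulAut.conj_apply, mul_assoc]
      rw [this]; exact hq
    · intro h
      refine ⟨g * x * g⁻¹, h, ?_⟩
      simp [MulAut.conj_apply, mul_assoc]
  have hQ' : Good Q' b := by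
    have h1 := hQ.conj g⁻¹ Q' (fun x => by rw [hQ'mem, inv_inv])
    rw [inv_inv] at h1
    rw [hb]; exact h1
  have hz2 := hQ.z_sq
  have hzinv : z⁻¹ = z := inv_eq_of_mul_eq_one_left hz2
  have hb2 : b * b = 1 := hQ'.z_sq
  have hbinv : b⁻¹ = b := inv_eq_of_mul_eq_one_left hb2
  have hzQ' : z ∈ Q' := by rw [hQ'mem]; exact ha
  have hbz : b ≠ z := by
    intro h
    apply hne
    calc g * z * g⁻¹ = g * b * g⁻¹ := by rw [h]
      _ = z := by rw [hb]; group
  have hzb : z * b = b * z := hQ'.comm_z z hzQ'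
  have hbz' : b * z = z * b := hzb.symm
  have hlink : ∀ k : G, k * b * k⁻¹ = z → ∀ x ∈ Q', k * x * k⁻¹ ∈ Q := by
    intro k hk x hx
    rw [hQ'mem] at hx
    have e : k * x * k⁻¹ = (k * g⁻¹) * (g * x * g⁻¹) * (k * g⁻¹)⁻¹ := by group
    rw [e]
    apply hQ.norm _ _ _ hx
    have : (k * g⁻¹) * z * (k * g⁻¹)⁻¹ = z := by
      calc (k * g⁻¹) * z * (k * g⁻¹)⁻¹ = k * (g⁻¹ * z * g) * k⁻¹ := by group
        _ = z := by rw [← hb]; exact hk
    exact mul_inv_eq_iff_eq_mul.mp this
  -- an element of Q' moving z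
  have hy : ∃ y ∈ Q', y * z * y⁻¹ = z * b := by
    by_contra hcon
    push_neg at hcon
    have hcz : ∀ x ∈ Q', z * x = x * z := by
      intro x hx
      rcases hQ'.comm x hx z hzQ' with h | h
      · exact h.symm
      · exfalso
        apply hcon x hx
        have hxb := hQ'.comm_z x hx
        calc x * z * x⁻¹ = z * x * b * x⁻¹ := by rw [h]
          _ = z * (x * b) * x⁻¹ := by group
          _ = z * (b * x) * x⁻¹ := by rw [hxb]
          _ = z * b := by group
    rcases hQ'.cen_inv z hzQ' hcz hz2 with h | h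
    · exact hQ.z_ne h
    · exact hbz h.symm
  obtain ⟨y, hyQ', hyz⟩ := hy
  have hyb : y * b = b * y := hQ'.comm_z y hyQ'
  by_cases hA : ∃ x ∈ Q, x * b * x⁻¹ = b * z
  · obtain ⟨x, hxQ, hxb⟩ := hA
    have hxz := hQ.comm_z x hxQ
    have hk : (y * x) * b * (y * x)⁻¹ = z := by
      calc (y * x) * b * (y * x)⁻¹ = y * (x * b * x⁻¹) * y⁻¹ := by group
        _ = y * (b * z) * y⁻¹ := by rw [hxb]
        _ = (y * b) * y⁻¹ * (y * z * y⁻¹) := by group
        _ = (b * y) * y⁻¹ * (z * b) := by rw [hyb, hyz]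
        _ = b * z * b := by group
        _ = z * b * b := by rw [hbz']
        _ = z := by rw [mul_assoc, hb2, mul_one]
    have h1 := hlink (y * x) hk z hzQ'
    have h2 : (y * x) * z * (y * x)⁻¹ = z * b := by
      calc (y * x) * z * (y * x)⁻¹ = y * (x * z) * x⁻¹ * y⁻¹ := by group
        _ = y * (z * x) * x⁻¹ * y⁻¹ := by rw [hxz]
        _ = y * z * y⁻¹ := by group
        _ = z * b := hyz
    rw [h2] at h1
    have := Q.mul_mem (Q.inv_mem hQ.z_mem) h1
    rwa [inv_mul_cancel_left] at this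
  · push_neg at hA
    by_contra hbQ
    have hnb : ∀ x ∈ Q, b * x * b ∈ Q := by
      intro x hx
      have := hQ.norm b hbz' x hx
      rwa [hbinv] at this
    have hBz : ∀ x ∈ Q, x⁻¹ * (b * x * b) ≠ z := by
      intro x hx h
      apply hA x⁻¹ (Q.inv_mem hx)
      calc x⁻¹ * b * x⁻¹⁻¹ = x⁻¹ * (b * x * b) * b⁻¹ := by group
        _ = z * b⁻¹ := by rw [h]
        _ = z * b := by rw [hbinv]
        _ = b * z := hzb
    have hd : ∀ x ∈ Q, (x⁻¹ * (b * x * b)) * (x⁻¹ * (b * x * b)) = 1 ∧
        b * (x⁻¹ * (b * x * b)) = (x⁻¹ * (b * x * b)) * b := by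
      intro x hx
      obtain ⟨d, hdd⟩ : ∃ d : G, d = x⁻¹ * (b * x * b) := ⟨_, rfl⟩
      rw [← hdd]
      have hdQ : d ∈ Q := by rw [hdd]; exact Q.mul_mem (Q.inv_mem hx) (hnb x hx)
      have h1 : b * d * b = d⁻¹ := by
        rw [hdd]
        calc b * (x⁻¹ * (b * x * b)) * b = b * x⁻¹ * b * x * (b * b) := by group
          _ = b * x⁻¹ * b * x := by rw [hb2, mul_one]
          _ = b⁻¹ * x⁻¹ * b⁻¹ * x := by rw [hbinv]
          _ = (x⁻¹ * (b * x * b))⁻¹ := by group
      have hd2 : d * d = 1 := by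
        rcases hQ.sq d hdQ with h | h
        · exact h
        · exfalso
          apply hBz d⁻¹ (Q.inv_mem hdQ)
          have h2 : b * d⁻¹ * b = d := by
            calc b * d⁻¹ * b = (b⁻¹ * d * b⁻¹)⁻¹ := by group
              _ = (b * d * b)⁻¹ := by rw [hbinv]
              _ = d := by rw [h1, inv_inv]
          calc d⁻¹⁻¹ * (b * d⁻¹ * b) = d * d := by rw [h2, inv_inv]
            _ = z := h
      refine ⟨hd2, ?_⟩
      have hdinv : d⁻¹ = d := inv_eq_of_mul_eq_one_left hd2
      calc b * d = b * d * b * b⁻¹ := by group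
        _ = d⁻¹ * b⁻¹ := by rw [h1]
        _ = d * b := by rw [hdinv, hbinv]
    have hnc : ¬ ∀ x ∈ Q, x⁻¹ * (b * x * b) = 1 ∨ x⁻¹ * (b * x * b) = z := by
      intro h
      apply hbQ
      apply hQ.cent b hbz'
      intro x hx
      rcases h x hx with h1 | h1
      · have h2 : b * x * b = x := by
          calc b * x * b = x * (x⁻¹ * (b * x * b)) := by group
            _ = x := by rw [h1, mul_one]
        calc b * x = b * x * b * b⁻¹ := by group
          _ = x * b := by rw [h2, hbinv]
      · exact absurd h1 (hBz x hx)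
    have hyzc : z * y = y * z * b := by
      have h1 : y * z = z * b * y := by
        calc y * z = y * z * y⁻¹ * y := by group
          _ = z * b * y := by rw [hyz]
      calc z * y = z * (y * b) * b⁻¹ := by group
        _ = z * (b * y) * b⁻¹ := by rw [hyb]
        _ = (z * b * y) * b⁻¹ := by group
        _ = y * z * b⁻¹ := by rw [← h1]
        _ = y * z * b := by rw [hbinv]
    have hyb' : b * y⁻¹ = y⁻¹ * b := by
      calc b * y⁻¹ = y⁻¹ * (y * b) * y⁻¹ := by group
        _ = y⁻¹ * (b * y) * y⁻¹ := by rw [hyb]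
        _ = y⁻¹ * b := by group
    have hdec : ∀ u ∈ Q', u * z = z * u ∨ (y⁻¹ * u) * z = z * (y⁻¹ * u) := by
      intro u hu
      rcases hQ'.comm u hu z hzQ' with h | h
      · left; exact h
      · right
        have hub := hQ'.comm_z u hu
        have h1 : y⁻¹ * z = z * b * y⁻¹ := by
          calc y⁻¹ * z = y⁻¹ * (z * y) * y⁻¹ := by group
            _ = y⁻¹ * (y * z * b) * y⁻¹ := by rw [hyzc]
            _ = z * b * y⁻¹ := by group
        calc y⁻¹ * u * z = y⁻¹ * (u * z) := by group
          _ = y⁻¹ * (z * u * b) := by rw [h]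
          _ = (y⁻¹ * z) * u * b := by group
          _ = z * b * y⁻¹ * u * b := by rw [h1]
          _ = z * (b * y⁻¹) * (u * b) := by group
          _ = z * (y⁻¹ * b) * (b * u) := by rw [hub, hyb']
          _ = z * y⁻¹ * (b * b) * u := by group
          _ = z * (y⁻¹ * u) := by rw [hb2]; group
    have hcen : ∀ w ∈ Q', (∀ f ∈ Q', f * z = z * f → w * f = f * w) → w * y = y * w →
        ∀ u ∈ Q', w * u = u * w := by
      intro w hw hwF hwy u hu
      rcases hdec u hu with h | h
      · exact hwF u hu h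
      · have h1 := hwF (y⁻¹ * u) (Q'.mul_mem (Q'.inv_mem hyQ') hu) h
        calc w * u = w * y * (y⁻¹ * u) := by group
          _ = y * w * (y⁻¹ * u) := by rw [hwy]
          _ = y * (w * (y⁻¹ * u)) := by group
          _ = y * ((y⁻¹ * u) * w) := by rw [h1]
          _ = u * w := by group
    have hW : ∀ w, w ∈ Q → w ∈ Q' → w = 1 ∨ w = z := by
      intro w hwQ hwQ'
      have hwz := hQ.comm_z w hwQ
      have hww : w * w = 1 := by
        rcases hQ.sq w hwQ with h | h
        · exact h
        · rcases hQ'.sq w hwQ' with h' | h'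
          · exact h'
          · exact absurd (h'.symm.trans h) hbz
      have hwF : ∀ f ∈ Q', f * z = z * f → w * f = f * w := by
        intro f hf hfz
        rcases hQ'.comm w hwQ' f hf with h | h
        · exact h
        · exfalso; apply hbQ
          have hfz' : f⁻¹ * z = z * f⁻¹ := by
            calc f⁻¹ * z = f⁻¹ * (z * f) * f⁻¹ := by group
              _ = f⁻¹ * (f * z) * f⁻¹ := by rw [hfz]
              _ = z * f⁻¹ := by group
          have h1 := hQ.norm f⁻¹ hfz' w hwQ
          rw [inv_inv] at h1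
          have h2 : b = w⁻¹ * (f⁻¹ * w * f) := by
            calc b = (f * w)⁻¹ * (f * w * b) := by group
              _ = (f * w)⁻¹ * (w * f) := by rw [h]
              _ = w⁻¹ * (f⁻¹ * w * f) := by group
          rw [h2]; exact Q.mul_mem (Q.inv_mem hwQ) h1
      rcases hQ'.comm w hwQ' y hyQ' with h | h
      · have hc := hcen w hwQ' hwF h
        rcases hQ'.cen_inv w hwQ' hc hww with h1 | h1
        · left; exact h1
        · exfalso; apply hbQ; rw [← h1]; exact hwQ
      · have hwzQ' : w * z ∈ Q' := Q'.mul_mem hwQ' hzQ'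
        have hc : ∀ u ∈ Q', (w * z) * u = u * (w * z) := by
          apply hcen (w * z) hwzQ'
          · intro f hf hfz
            have := hwF f hf hfz
            calc w * z * f = w * (z * f) := by group
              _ = w * (f * z) := by rw [hfz]
              _ = (w * f) * z := by group
              _ = f * w * z := by rw [this]
              _ = f * (w * z) := by group
          · calc w * z * y = w * (z * y) := by group
              _ = w * (y * z * b) := by rw [hyzc]
              _ = (w * y) * z * b := by group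
              _ = (y * w * b) * z * b := by rw [h]
              _ = y * w * (b * z) * b := by group
              _ = y * w * (z * b) * b := by rw [hbz']
              _ = y * w * z * (b * b) := by group
              _ = y * (w * z) := by rw [hb2]; group
        have hwz2 : (w * z) * (w * z) = 1 := by
          calc (w * z) * (w * z) = w * (z * w) * z := by group
            _ = w * (w * z) * z := by rw [hwz]
            _ = (w * w) * (z * z) := by group
            _ = 1 := by rw [hww, hz2, mul_one]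
        rcases hQ'.cen_inv (w * z) hwzQ' hc hwz2 with h1 | h1
        · right
          calc w = w * z * z⁻¹ := by group
            _ = z := by rw [h1, one_mul, hzinv]
        · exfalso; apply hbQ; rw [← h1]; exact Q.mul_mem hwQ hQ.z_mem
    have hα : ∀ c ∈ Q, b * c = c * b → ∀ f ∈ Q', f * z = z * f →
        f * c * f⁻¹ = c ∨ f * c * f⁻¹ = c * z := by
      intro c hc hbc f hf hfz
      have h1 : c⁻¹ * (f * c * f⁻¹) ∈ Q := Q.mul_mem (Q.inv_mem hc) (hQ.norm f hfz c hc)
      have h2 : c⁻¹ * (f * c * f⁻¹) ∈ Q' := by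
        have hcb : c⁻¹ * b = b * c⁻¹ := by
          calc c⁻¹ * b = c⁻¹ * (b * c) * c⁻¹ := by group
            _ = c⁻¹ * (c * b) * c⁻¹ := by rw [hbc]
            _ = b * c⁻¹ := by group
        have h3 := hQ'.norm c⁻¹ hcb f hf
        rw [inv_inv] at h3
        have e : c⁻¹ * (f * c * f⁻¹) = (c⁻¹ * f * c) * f⁻¹ := by group
        rw [e]; exact Q'.mul_mem h3 (Q'.inv_mem hf)
      rcases hW _ h1 h2 with h | h
      · left
        calc f * c * f⁻¹ = c * (c⁻¹ * (f * c * f⁻¹)) := by group
          _ = c := by rw [h, mul_one]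
      · right
        calc f * c * f⁻¹ = c * (c⁻¹ * (f * c * f⁻¹)) := by group
          _ = c * z := by rw [h]
    have hδ : ∀ x ∈ Q, ∀ f ∈ Q', f * z = z * f →
        b * (x⁻¹ * (f * x * f⁻¹)) = (x⁻¹ * (f * x * f⁻¹)) * b := by
      intro x hx f hf hfz
      have hfb := hQ'.comm_z f hf
      obtain ⟨x', hx'⟩ : ∃ x' : G, x' = f * x * f⁻¹ := ⟨_, rfl⟩
      rw [← hx']
      have hx'Q : x' ∈ Q := by rw [hx']; exact hQ.norm f hfz x hx
      obtain ⟨e, he⟩ : ∃ e : G, e = x⁻¹ * x' := ⟨_, rfl⟩
      rw [← he]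
      have heQ : e ∈ Q := by rw [he]; exact Q.mul_mem (Q.inv_mem hx) hx'Q
      obtain ⟨d, hdd⟩ : ∃ d : G, d = x⁻¹ * (b * x * b) := ⟨_, rfl⟩
      have hdQ : d ∈ Q := by rw [hdd]; exact Q.mul_mem (Q.inv_mem hx) (hnb x hx)
      have hd2 : d * d = 1 := by rw [hdd]; exact (hd x hx).1
      have hdb : b * d = d * b := by rw [hdd]; exact (hd x hx).2
      have hfa : f⁻¹ * b * f = b := by
        calc f⁻¹ * b * f = f⁻¹ * (b * f) := by group
          _ = f⁻¹ * (f * b) := by rw [hfb]
          _ = b := by group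
      have hfb' : f * b * f⁻¹ = b := by
        calc f * b * f⁻¹ = (b * f) * f⁻¹ := by rw [hfb]
          _ = b := by group
      have hd' : x'⁻¹ * (b * x' * b) = f * d * f⁻¹ := by
        calc x'⁻¹ * (b * x' * b) = f * x⁻¹ * (f⁻¹ * b * f) * x * f⁻¹ * b := by rw [hx']; group
          _ = f * x⁻¹ * b * x * f⁻¹ * b := by rw [hfa]
          _ = f * x⁻¹ * b * x * f⁻¹ * (f * b * f⁻¹) := by rw [hfb']
          _ = f * d * f⁻¹ := by rw [hdd]; group
      have hd'' : f * d * f⁻¹ = d ∨ f * d * f⁻¹ = d * z := hα d hdQ hdb f hf hfz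
      have hbe : b * e * b = d⁻¹ * e * (x'⁻¹ * (b * x' * b)) := by
        rw [he, hdd]
        calc b * (x⁻¹ * x') * b = b⁻¹ * (x⁻¹ * x') * b := by rw [hbinv]
          _ = (x⁻¹ * (b * x * b))⁻¹ * (x⁻¹ * x') * (x'⁻¹ * (b * x' * b)) := by group
      have hdinv : d⁻¹ = d := inv_eq_of_mul_eq_one_left hd2
      have key : b * e * b = e ∨ b * e * b = e * z := by
        rw [hbe, hd', hdinv]
        rcases hQ.comm e heQ d hdQ with h1 | h1 <;> rcases hd'' with h2 | h2
        · left; rw [h2]
          calc d * e * d = d * (e * d) := by group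
            _ = d * (d * e) := by rw [h1]
            _ = (d * d) * e := by group
            _ = e := by rw [hd2, one_mul]
        · right; rw [h2]
          calc d * e * (d * z) = d * (e * d) * z := by group
            _ = d * (d * e) * z := by rw [h1]
            _ = (d * d) * e * z := by group
            _ = e * z := by rw [hd2, one_mul]
        · right; rw [h2]
          calc d * e * d = d * (e * d) := by group
            _ = d * (d * e * z) := by rw [h1]
            _ = (d * d) * e * z := by group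
            _ = e * z := by rw [hd2, one_mul]
        · left; rw [h2]
          calc d * e * (d * z) = d * (e * d) * z := by group
            _ = d * (d * e * z) * z := by rw [h1]
            _ = (d * d) * e * (z * z) := by group
            _ = e := by rw [hd2, hz2, one_mul, mul_one]
      rcases key with h | h
      · calc b * e = b * e * b * b⁻¹ := by group
          _ = e * b := by rw [h, hbinv]
      · exfalso
        apply hBz e heQ
        calc e⁻¹ * (b * e * b) = e⁻¹ * (e * z) := by rw [h]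
          _ = z := by group
    by_cases hS1 : ∃ f ∈ Q', f * z = z * f ∧ f * f = b
    · obtain ⟨f, hf, hfz, hff⟩ := hS1
      apply hnc
      intro x hx
      obtain ⟨e, he⟩ : ∃ e : G, e = x⁻¹ * (f * x * f⁻¹) := ⟨_, rfl⟩
      have heQ : e ∈ Q := by rw [he]; exact Q.mul_mem (Q.inv_mem hx) (hQ.norm f hfz x hx)
      have heb : b * e = e * b := by rw [he]; exact hδ x hx f hf hfz
      have h1 : f * x * f⁻¹ = x * e := by rw [he]; group
      have h2 : f * e * f⁻¹ = e ∨ f * e * f⁻¹ = e * z := hα e heQ heb f hf hfz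
      have h3 : b * x * b = x * e * (f * e * f⁻¹) := by
        calc b * x * b = b * x * b⁻¹ := by rw [hbinv]
          _ = (f * f) * x * (f * f)⁻¹ := by rw [hff]
          _ = f * (f * x * f⁻¹) * f⁻¹ := by group
          _ = f * (x * e) * f⁻¹ := by rw [h1]
          _ = (f * x * f⁻¹) * (f * e * f⁻¹) := by group
          _ = x * e * (f * e * f⁻¹) := by rw [h1]
      have h4 : x⁻¹ * (b * x * b) = e * (f * e * f⁻¹) := by rw [h3]; group
      rw [h4]
      rcases h2 with h2 | h2 <;> rcases hQ.sq e heQ with h5 | h5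
      · left; rw [h2, h5]
      · right; rw [h2, h5]
      · right; rw [h2, ← mul_assoc, h5, one_mul]
      · left; rw [h2, ← mul_assoc, h5, hz2]
    by_cases hS2 : ∃ s ∈ Q', ∃ t ∈ Q', s * z = z * s ∧ t * z = z * t ∧ s * t = t * s * b
    · obtain ⟨s, hs, t, ht, hsz, htz, hst⟩ := hS2
      apply hnc
      intro x hx
      obtain ⟨es, hes⟩ : ∃ es : G, es = x⁻¹ * (s * x * s⁻¹) := ⟨_, rfl⟩
      obtain ⟨et, het⟩ : ∃ et : G, et = x⁻¹ * (t * x * t⁻¹) := ⟨_, rfl⟩
      have hesQ : es ∈ Q := by rw [hes]; exact Q.mul_mem (Q.inv_mem hx) (hQ.norm s hsz x hx)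
      have hetQ : et ∈ Q := by rw [het]; exact Q.mul_mem (Q.inv_mem hx) (hQ.norm t htz x hx)
      have hesb : b * es = es * b := by rw [hes]; exact hδ x hx s hs hsz
      have hetb : b * et = et * b := by rw [het]; exact hδ x hx t ht htz
      have h1s : s * x * s⁻¹ = x * es := by rw [hes]; group
      have h1t : t * x * t⁻¹ = x * et := by rw [het]; group
      have hA1 : Rz z ((s * t) * x * (s * t)⁻¹) (x * es * et) := by
        have e1 : (s * t) * x * (s * t)⁻¹ = x * es * (s * et * s⁻¹) := by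
          calc (s * t) * x * (s * t)⁻¹ = s * (t * x * t⁻¹) * s⁻¹ := by group
            _ = s * (x * et) * s⁻¹ := by rw [h1t]
            _ = (s * x * s⁻¹) * (s * et * s⁻¹) := by group
            _ = x * es * (s * et * s⁻¹) := by rw [h1s]
        rw [e1]
        exact Rz.mul_left (x * es) (hα et hetQ hetb s hs hsz)
      have hB1 : Rz z ((t * s) * x * (t * s)⁻¹) (x * et * es) := by
        have e1 : (t * s) * x * (t * s)⁻¹ = x * et * (t * es * t⁻¹) := by
          calc (t * s) * x * (t * s)⁻¹ = t * (s * x * s⁻¹) * t⁻¹ := by group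
            _ = t * (x * es) * t⁻¹ := by rw [h1s]
            _ = (t * x * t⁻¹) * (t * es * t⁻¹) := by group
            _ = x * et * (t * es * t⁻¹) := by rw [h1t]
        rw [e1]
        exact Rz.mul_left (x * et) (hα es hesQ hesb t ht htz)
      have hcomm : Rz z (x * es * et) (x * et * es) := by
        have h := Rz.mul_left (z := z) x (hQ.comm es hesQ et hetQ)
        rcases h with h | h
        · left; rw [mul_assoc, h, mul_assoc]
        · right; rw [mul_assoc, h]; group
      obtain ⟨d, hdd⟩ : ∃ d : G, d = x⁻¹ * (b * x * b) := ⟨_, rfl⟩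
      rw [← hdd]
      have hdQ : d ∈ Q := by rw [hdd]; exact Q.mul_mem (Q.inv_mem hx) (hnb x hx)
      have hdb : b * d = d * b := by rw [hdd]; exact (hd x hx).2
      have hbx : b * x * b = x * d := by rw [hdd]; group
      have hA2 : (s * t) * x * (s * t)⁻¹ =
          ((t * s) * x * (t * s)⁻¹) * ((t * s) * d * (t * s)⁻¹) := by
        calc (s * t) * x * (s * t)⁻¹ = (t * s * b) * x * (t * s * b)⁻¹ := by rw [hst]
          _ = (t * s) * (b * x * b⁻¹) * (t * s)⁻¹ := by group
          _ = (t * s) * (x * d) * (t * s)⁻¹ := by rw [hbinv, hbx]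
          _ = ((t * s) * x * (t * s)⁻¹) * ((t * s) * d * (t * s)⁻¹) := by group
      have hD : Rz z ((t * s) * d * (t * s)⁻¹) d := by
        have h1 : Rz z (s * d * s⁻¹) d := hα d hdQ hdb s hs hsz
        have h2 : Rz z (t * (s * d * s⁻¹) * t⁻¹) (t * d * t⁻¹) := Rz.conj t htz h1
        have h3 : Rz z (t * d * t⁻¹) d := hα d hdQ hdb t ht htz
        have e : (t * s) * d * (t * s)⁻¹ = t * (s * d * s⁻¹) * t⁻¹ := by group
        rw [e]; exact Rz.trans hz2 h2 h3
      obtain ⟨A, hAdef⟩ : ∃ A : G, A = (s * t) * x * (s * t)⁻¹ := ⟨_, rfl⟩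
      obtain ⟨B, hBdef⟩ : ∃ B : G, B = (t * s) * x * (t * s)⁻¹ := ⟨_, rfl⟩
      rw [← hAdef] at hA1 hA2
      rw [← hBdef] at hB1 hA2
      have hAB : Rz z A B := Rz.trans hz2 (Rz.trans hz2 hA1 hcomm) (Rz.symm hz2 hB1)
      have hABd : Rz z A (B * d) := by rw [hA2]; exact Rz.mul_left B hD
      have hBBd : Rz z B (B * d) := Rz.trans hz2 (Rz.symm hz2 hAB) hABd
      rcases hBBd with h | h
      · left
        have h' : B * 1 = B * d := by rw [mul_one]; exact h
        exact (mul_left_cancel h').symm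
      · right
        have h' : B * 1 = B * (d * z) := by rw [mul_one, ← mul_assoc]; exact h
        have h'' := mul_left_cancel h'
        calc d = d * z * z⁻¹ := by group
          _ = z := by rw [← h'', one_mul, hzinv]
    push_neg at hS1 hS2
    have hF2 : ∀ f ∈ Q', f * z = z * f → f * f = 1 := by
      intro f hf hfz
      rcases hQ'.sq f hf with h | h
      · exact h
      · exact absurd h (hS1 f hf hfz)
    have hFc : ∀ f₁ ∈ Q', ∀ f₂ ∈ Q', f₁ * z = z * f₁ → f₂ * z = z * f₂ → f₁ * f₂ = f₂ * f₁ := by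
      intro f₁ h1 f₂ h2 hz1 hz2'
      rcases hQ'.comm f₁ h1 f₂ h2 with h | h
      · exact h
      · exact absurd h (hS2 f₁ h1 f₂ h2 hz1 hz2')
    have hF4 : ∀ f ∈ Q', f * z = z * f → f = 1 ∨ f = b ∨ f = z ∨ f = z * b := by
      intro f hf hfz
      rcases hQ'.comm f hf y hyQ' with h | h
      · have hc := hcen f hf (fun f' hf' hf'z => hFc f hf f' hf' hfz hf'z) h
        rcases hQ'.cen_inv f hf hc (hF2 f hf hfz) with h1 | h1
        · left; exact h1
        · right; left; exact h1
      · have hfzQ' : f * z ∈ Q' := Q'.mul_mem hf hzQ'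
        have hfzz : (f * z) * z = z * (f * z) := by
          calc (f * z) * z = (z * f) * z := by rw [hfz]
            _ = z * (f * z) := by group
        have hc := hcen (f * z) hfzQ' (fun f' hf' hf'z => hFc (f * z) hfzQ' f' hf' hfzz hf'z) (by
          calc f * z * y = f * (z * y) := by group
            _ = f * (y * z * b) := by rw [hyzc]
            _ = (f * y) * z * b := by group
            _ = (y * f * b) * z * b := by rw [h]
            _ = y * f * (b * z) * b := by group
            _ = y * f * (z * b) * b := by rw [hbz']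
            _ = y * f * z * (b * b) := by group
            _ = y * (f * z) := by rw [hb2]; group)
        rcases hQ'.cen_inv (f * z) hfzQ' hc (hF2 (f * z) hfzQ' hfzz) with h1 | h1
        · right; right; left
          calc f = f * z * z⁻¹ := by group
            _ = z := by rw [h1, one_mul, hzinv]
        · right; right; right
          calc f = f * z * z⁻¹ := by group
            _ = b * z := by rw [h1, hzinv]
            _ = z * b := hbz'
    have hT1 : ∀ u ∈ Q', ∀ v ∈ Q', u * v = v * u → u * z = z * u →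
        (u = 1 ∨ u = b) ∨ (v = 1 ∨ v = b) ∨ (u⁻¹ * v = 1 ∨ u⁻¹ * v = b) := by
      intro u hu v hv huv huz
      rcases hF4 u hu huz with h | h | h | h
      · left; left; exact h
      · left; right; exact h
      · have hvz : v * z = z * v := by rw [← h]; exact huv.symm
        rcases hF4 v hv hvz with h' | h' | h' | h'
        · right; left; left; exact h'
        · right; left; right; exact h'
        · right; right; left; rw [h, h']; group
        · right; right; right; rw [h, h']; group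
      · have hvb := hQ'.comm_z v hv
        have hvz : v * z = z * v := by
          have h1 : v * (z * b) = (z * b) * v := by rw [← h]; exact huv.symm
          calc v * z = v * (z * b) * b⁻¹ := by group
            _ = (z * b) * v * b⁻¹ := by rw [h1]
            _ = z * (b * v) * b⁻¹ := by group
            _ = z * (v * b) * b⁻¹ := by rw [hvb]
            _ = z * v := by group
        rcases hF4 v hv hvz with h' | h' | h' | h'
        · right; left; left; exact h'
        · right; left; right; exact h'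
        · right; right; right; rw [h, h']
          calc (z * b)⁻¹ * z = b⁻¹ := by group
            _ = b := hbinv
        · right; right; left; rw [h, h']; group
    have hT : ∀ u ∈ Q', ∀ v ∈ Q', u * v = v * u →
        (u = 1 ∨ u = b) ∨ (v = 1 ∨ v = b) ∨ (u⁻¹ * v = 1 ∨ u⁻¹ * v = b) := by
      intro u hu v hv huv
      by_cases huz : u * z = z * u
      · exact hT1 u hu v hv huv huz
      by_cases hvz : v * z = z * v
      · rcases hT1 v hv u hu huv.symm hvz with h | h | h
        · right; left; exact h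
        · left; exact h
        · right; right
          rcases h with h | h
          · left
            calc u⁻¹ * v = (v⁻¹ * u)⁻¹ := by group
              _ = 1 := by rw [h, inv_one]
          · right
            calc u⁻¹ * v = (v⁻¹ * u)⁻¹ := by group
              _ = b := by rw [h, hbinv]
      · have h1 : (y⁻¹ * u) * z = z * (y⁻¹ * u) := (hdec u hu).resolve_left huz
        have h2 : (y⁻¹ * v) * z = z * (y⁻¹ * v) := (hdec v hv).resolve_left hvz
        have hwQ' : u⁻¹ * v ∈ Q' := Q'.mul_mem (Q'.inv_mem hu) hv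
        have hwz : (u⁻¹ * v) * z = z * (u⁻¹ * v) := by
          have h1' : (y⁻¹ * u)⁻¹ * z = z * (y⁻¹ * u)⁻¹ := by
            calc (y⁻¹ * u)⁻¹ * z = (y⁻¹ * u)⁻¹ * (z * (y⁻¹ * u)) * (y⁻¹ * u)⁻¹ := by group
              _ = (y⁻¹ * u)⁻¹ * ((y⁻¹ * u) * z) * (y⁻¹ * u)⁻¹ := by rw [h1]
              _ = z * (y⁻¹ * u)⁻¹ := by group
          calc (u⁻¹ * v) * z = (y⁻¹ * u)⁻¹ * ((y⁻¹ * v) * z) := by group
            _ = (y⁻¹ * u)⁻¹ * (z * (y⁻¹ * v)) := by rw [h2]
            _ = ((y⁻¹ * u)⁻¹ * z) * (y⁻¹ * v) := by group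
            _ = (z * (y⁻¹ * u)⁻¹) * (y⁻¹ * v) := by rw [h1']
            _ = z * (u⁻¹ * v) := by group
        have huw : u * (u⁻¹ * v) = (u⁻¹ * v) * u := by
          calc u * (u⁻¹ * v) = u⁻¹ * (u * v) := by group
            _ = u⁻¹ * (v * u) := by rw [huv]
            _ = (u⁻¹ * v) * u := by group
        rcases hF4 _ hwQ' hwz with h | h | h | h
        · right; right; left; exact h
        · right; right; right; exact h
        · exfalso; apply huz; rw [h] at huw; exact huw
        · exfalso; apply huz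
          rw [h] at huw
          have hub := hQ'.comm_z u hu
          calc u * z = u * (z * b) * b⁻¹ := by group
            _ = (z * b) * u * b⁻¹ := by rw [huw]
            _ = z * (b * u) * b⁻¹ := by group
            _ = z * (u * b) * b⁻¹ := by rw [hub]
            _ = z * u := by group
    have hTQ : ∀ u ∈ Q, ∀ v ∈ Q, u * v = v * u →
        (u = 1 ∨ u = z) ∨ (v = 1 ∨ v = z) ∨ (u⁻¹ * v = 1 ∨ u⁻¹ * v = z) := by
      intro u hu v hv huv
      have hin : ∀ t ∈ Q, g⁻¹ * t * g ∈ Q' := by
        intro t ht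
        rw [hQ'mem]
        have : g * (g⁻¹ * t * g) * g⁻¹ = t := by group
        rw [this]; exact ht
      have huv' : (g⁻¹ * u * g) * (g⁻¹ * v * g) = (g⁻¹ * v * g) * (g⁻¹ * u * g) := by
        calc (g⁻¹ * u * g) * (g⁻¹ * v * g) = g⁻¹ * (u * v) * g := by group
          _ = g⁻¹ * (v * u) * g := by rw [huv]
          _ = (g⁻¹ * v * g) * (g⁻¹ * u * g) := by group
      have back1 : ∀ t : G, g⁻¹ * t * g = 1 → t = 1 := by
        intro t h
        calc t = g * (g⁻¹ * t * g) * g⁻¹ := by group
          _ = 1 := by rw [h]; group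
      have back2 : ∀ t : G, g⁻¹ * t * g = b → t = z := by
        intro t h
        calc t = g * (g⁻¹ * t * g) * g⁻¹ := by group
          _ = g * b * g⁻¹ := by rw [h]
          _ = z := by rw [hb]; group
      have e : (g⁻¹ * u * g)⁻¹ * (g⁻¹ * v * g) = g⁻¹ * (u⁻¹ * v) * g := by group
      rcases hT _ (hin u hu) _ (hin v hv) huv' with (h | h) | (h | h) | (h | h)
      · left; left; exact back1 _ h
      · left; right; exact back2 _ h
      · right; left; left; exact back1 _ h
      · right; left; right; exact back2 _ h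
      · right; right; left; rw [e] at h; exact back1 _ h
      · right; right; right; rw [e] at h; exact back2 _ h
    apply hnc
    intro x hx
    by_contra hcon
    push_neg at hcon
    obtain ⟨d, hdd⟩ : ∃ d : G, d = x⁻¹ * (b * x * b) := ⟨_, rfl⟩
    rw [← hdd] at hcon
    have hdQ : d ∈ Q := by rw [hdd]; exact Q.mul_mem (Q.inv_mem hx) (hnb x hx)
    have hd2 : d * d = 1 := by rw [hdd]; exact (hd x hx).1
    have hbx : b * x * b = x * d := by rw [hdd]; group
    have hbzb : b * z * b = z := by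
      calc b * z * b = z * b * b := by rw [hbz']
        _ = z := by rw [mul_assoc, hb2, mul_one]
    have hxx : b * (x * x) * b = x * x := by
      rcases hQ.sq x hx with h | h
      · rw [h, mul_one, hb2]
      · rw [h]; exact hbzb
    have hbb : ∀ t : G, t = b * (b * t * b) * b := by
      intro t
      calc t = (b * b) * t * (b * b) := by rw [hb2, one_mul, mul_one]
        _ = b * (b * t * b) * b := by group
    have hxd : x * d = d * x := by
      have h1 : (x * d) * (x * d) = x * x := by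
        calc (x * d) * (x * d) = (b * x * b) * (b * x * b) := by rw [hbx]
          _ = b * x * (b * b) * x * b := by group
          _ = b * (x * x) * b := by rw [hb2]; group
          _ = x * x := hxx
      have h2 : d * x * d = x := by
        have : x * (d * x * d) = x * x := by rw [← h1]; group
        exact mul_left_cancel this
      calc x * d = (d * x * d) * d := by rw [h2]
        _ = d * x * (d * d) := by group
        _ = d * x := by rw [hd2, mul_one]
    have hd1 : b * 1 * b = 1 := by rw [mul_one, hb2]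
    rcases hTQ x hx d hdQ hxd with (h | h) | (h | h) | (h | h)
    · apply hcon.1
      rw [hdd, h, hd1]; group
    · apply hcon.1
      rw [hdd, h, hbzb]; group
    · exact hcon.1 h
    · exact hcon.2 h
    · have hdx : d = x := by
        calc d = x * (x⁻¹ * d) := by group
          _ = x := by rw [h, mul_one]
      have h1 : b * x * b = x * x := by rw [hbx, hdx]
      have h2 : x = x * x := by
        calc x = b * (b * x * b) * b := hbb x
          _ = b * (x * x) * b := by rw [h1]
          _ = x * x := hxx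
      have h3 : x = 1 := by
        have : x * 1 = x * x := by rw [mul_one]; exact h2
        exact (mul_left_cancel this).symm
      apply hcon.1
      rw [hdd, h3, hd1]; group
    · have hdx : d = x * z := by
        calc d = x * (x⁻¹ * d) := by group
          _ = x * z := by rw [h]
      have h1 : b * x * b = x * x * z := by rw [hbx, hdx]; group
      have hxxz : b * (x * x * z) * b = x * x * z := by
        calc b * (x * x * z) * b = (b * (x * x) * b) * (b⁻¹ * z * b) := by group
          _ = (x * x) * (b * z * b) := by rw [hxx, hbinv]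
          _ = x * x * z := by rw [hbzb]
      have h2 : x = x * x * z := by
        calc x = b * (b * x * b) * b := hbb x
          _ = b * (x * x * z) * b := by rw [h1]
          _ = x * x * z := hxxz
      have h3 : x = z := by
        have : x * 1 = x * (x * z) := by rw [mul_one, ← mul_assoc]; exact h2
        have h4 := mul_left_cancel this
        calc x = x * z * z⁻¹ := by group
          _ = z := by rw [← h4, one_mul, hzinv]
      apply hcon.1
      rw [hdd, h3, hbzb]; group


theorem final {Q : Subgroup G} {z : G} (hQ : Good Q z) (g : G)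
    (ha : g * z * g⁻¹ ∈ Q) (hne : g * z * g⁻¹ ≠ z) :
    z ∈ Q.map (MulAut.conj g).toMonoidHom ∧
      ∀ u ∈ Subgroup.closure ({z, g * z * g⁻¹} : Set G),
        ∀ v ∈ Subgroup.closure ({z, g * z * g⁻¹} : Set G),
        u ≠ 1 → v ≠ 1 → u ≠ v →
          ∃ x ∈ Q ⊔ Q.map (MulAut.conj g).toMonoidHom,
            x * z * x⁻¹ = u ∧ x * (g * z * g⁻¹) * x⁻¹ = v := by
  classical
  have hcore := core hQ g ha hne
  obtain ⟨a, hadef⟩ : ∃ a : G, a = g * z * g⁻¹ := ⟨_, rfl⟩
  rw [← hadef] at ha hne ⊢
  obtain ⟨Qa, hQadef⟩ : ∃ Qa : Subgroup G, Qa = Q.map (MulAut.conj g).toMonoidHom := ⟨_, rfl⟩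
  rw [← hQadef]
  have hQamem : ∀ x, x ∈ Qa ↔ g⁻¹ * x * g ∈ Q := by
    intro x
    rw [hQadef]
    constructor
    · rintro ⟨q, hq, rfl⟩
      have : g⁻¹ * ((MulAut.conj g).toMonoidHom q) * g = q := by
        simp [mul_assoc]
      rw [this]; exact hq
    · intro h
      refine ⟨g⁻¹ * x * g, h, ?_⟩
      simp [mul_assoc]
  have hQa : Good Qa a := by rw [hadef]; exact hQ.conj g Qa hQamem
  have hzQa : z ∈ Qa := by rw [hQamem]; exact hcore
  refine ⟨hzQa, ?_⟩
  have hz2 := hQ.z_sq
  have ha2 : a * a = 1 := hQa.z_sq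
  have haz : a * z = z * a := hQ.comm_z a ha
  have ha1 : a ≠ 1 := hQa.z_ne
  have hx1 : ∃ x₁ ∈ Q, x₁ * a * x₁⁻¹ = z * a := by
    by_contra hcon
    push_neg at hcon
    have hc : ∀ x ∈ Q, a * x = x * a := by
      intro x hx
      rcases hQ.comm x hx a ha with h | h
      · exact h.symm
      · exfalso
        apply hcon x hx
        have hxz := hQ.comm_z x hx
        calc x * a * x⁻¹ = a * x * z * x⁻¹ := by rw [h]
          _ = a * (x * z) * x⁻¹ := by group
          _ = a * (z * x) * x⁻¹ := by rw [hxz]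
          _ = a * z := by group
          _ = z * a := haz
    rcases hQ.cen_inv a ha hc ha2 with h | h
    · exact ha1 h
    · exact hne h
  obtain ⟨x₁, hx₁Q, hx₁a⟩ := hx1
  have hx₁z : x₁ * z * x₁⁻¹ = z := by
    have := hQ.comm_z x₁ hx₁Q
    calc x₁ * z * x₁⁻¹ = z * x₁ * x₁⁻¹ := by rw [this]
      _ = z := by group
  have hy1 : ∃ y₁ ∈ Qa, y₁ * z * y₁⁻¹ = z * a := by
    by_contra hcon
    push_neg at hcon
    have hc : ∀ x ∈ Qa, z * x = x * z := by
      intro x hx
      rcases hQa.comm x hx z hzQa with h | h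
      · exact h.symm
      · exfalso
        apply hcon x hx
        have hxa := hQa.comm_z x hx
        calc x * z * x⁻¹ = z * x * a * x⁻¹ := by rw [h]
          _ = z * (x * a) * x⁻¹ := by group
          _ = z * (a * x) * x⁻¹ := by rw [hxa]
          _ = z * a := by group
    rcases hQa.cen_inv z hzQa hc hz2 with h | h
    · exact hQ.z_ne h
    · exact hne h.symm
  obtain ⟨y₁, hy₁Q, hy₁z⟩ := hy1
  have hy₁a : y₁ * a * y₁⁻¹ = a := by
    have := hQa.comm_z y₁ hy₁Q
    calc y₁ * a * y₁⁻¹ = a * y₁ * y₁⁻¹ := by rw [this]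
      _ = a := by group
  have t3 : a * z = z * a := haz
  have t4 : z * (z * a) = a := by rw [← mul_assoc, hz2, one_mul]
  have t5 : a * (z * a) = z := by rw [← mul_assoc, haz, mul_assoc, ha2, mul_one]
  have t6 : (z * a) * z = a := by rw [mul_assoc, haz, ← mul_assoc, hz2, one_mul]
  have t7 : (z * a) * a = z := by rw [mul_assoc, ha2, mul_one]
  have t8 : (z * a) * (z * a) = 1 := by rw [mul_assoc, t5, hz2]
  have hV : ∀ u ∈ Subgroup.closure ({z, a} : Set G), u = 1 ∨ u = z ∨ u = a ∨ u = z * a := by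
    intro u hu
    induction hu using Subgroup.closure_induction with
    | mem x hx =>
      rcases hx with hx | hx
      · right; left; exact hx
      · rw [Set.mem_singleton_iff] at hx; right; right; left; exact hx
    | one => left; rfl
    | mul x y _ _ hx hy =>
      rcases hx with hx | hx | hx | hx <;> rcases hy with hy | hy | hy | hy <;> rw [hx, hy] <;>
        simp [hz2, ha2, t3, t4, t5, t6, t7, t8]
    | inv x _ hx =>
      rcases hx with hx | hx | hx | hx
      · left; rw [hx, inv_one]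
      · right; left; rw [hx]; exact inv_eq_of_mul_eq_one_left hz2
      · right; right; left; rw [hx]; exact inv_eq_of_mul_eq_one_left ha2
      · right; right; right; rw [hx]; exact inv_eq_of_mul_eq_one_left t8
  have hxsup : x₁ ∈ Q ⊔ Qa := Subgroup.mem_sup_left hx₁Q
  have hysup : y₁ ∈ Q ⊔ Qa := Subgroup.mem_sup_right hy₁Q
  have c1z : (x₁ * y₁) * z * (x₁ * y₁)⁻¹ = a := by
    calc (x₁ * y₁) * z * (x₁ * y₁)⁻¹ = x₁ * (y₁ * z * y₁⁻¹) * x₁⁻¹ := by group
      _ = x₁ * (z * a) * x₁⁻¹ := by rw [hy₁z]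
      _ = (x₁ * z * x₁⁻¹) * (x₁ * a * x₁⁻¹) := by group
      _ = z * (z * a) := by rw [hx₁z, hx₁a]
      _ = a := t4
  have c1a : (x₁ * y₁) * a * (x₁ * y₁)⁻¹ = z * a := by
    calc (x₁ * y₁) * a * (x₁ * y₁)⁻¹ = x₁ * (y₁ * a * y₁⁻¹) * x₁⁻¹ := by group
      _ = x₁ * a * x₁⁻¹ := by rw [hy₁a]
      _ = z * a := hx₁a
  have c2z : (y₁ * x₁) * z * (y₁ * x₁)⁻¹ = z * a := by
    calc (y₁ * x₁) * z * (y₁ * x₁)⁻¹ = y₁ * (x₁ * z * x₁⁻¹) * y₁⁻¹ := by group
      _ = y₁ * z * y₁⁻¹ := by rw [hx₁z]
      _ = z * a := hy₁z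
  have c2a : (y₁ * x₁) * a * (y₁ * x₁)⁻¹ = z := by
    calc (y₁ * x₁) * a * (y₁ * x₁)⁻¹ = y₁ * (x₁ * a * x₁⁻¹) * y₁⁻¹ := by group
      _ = y₁ * (z * a) * y₁⁻¹ := by rw [hx₁a]
      _ = (y₁ * z * y₁⁻¹) * (y₁ * a * y₁⁻¹) := by group
      _ = (z * a) * a := by rw [hy₁z, hy₁a]
      _ = z := t7
  have c3z : (x₁ * y₁ * x₁) * z * (x₁ * y₁ * x₁)⁻¹ = a := by
    calc (x₁ * y₁ * x₁) * z * (x₁ * y₁ * x₁)⁻¹
          = (x₁ * y₁) * (x₁ * z * x₁⁻¹) * (x₁ * y₁)⁻¹ := by group
      _ = (x₁ * y₁) * z * (x₁ * y₁)⁻¹ := by rw [hx₁z]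
      _ = a := c1z
  have c3a : (x₁ * y₁ * x₁) * a * (x₁ * y₁ * x₁)⁻¹ = z := by
    calc (x₁ * y₁ * x₁) * a * (x₁ * y₁ * x₁)⁻¹
          = (x₁ * y₁) * (x₁ * a * x₁⁻¹) * (x₁ * y₁)⁻¹ := by group
      _ = (x₁ * y₁) * (z * a) * (x₁ * y₁)⁻¹ := by rw [hx₁a]
      _ = ((x₁ * y₁) * z * (x₁ * y₁)⁻¹) * ((x₁ * y₁) * a * (x₁ * y₁)⁻¹) := by group
      _ = a * (z * a) := by rw [c1z, c1a]
      _ = z := t5
  intro u hu v hv hu1 hv1 huv
  rcases hV u hu with h | h | h | h
  · exact absurd h hu1
  · rcases hV v hv with h' | h' | h' | h'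
    · exact absurd h' hv1
    · exact absurd (h.trans h'.symm) huv
    · exact ⟨1, Subgroup.one_mem _, by rw [h]; simp, by rw [h']; simp⟩
    · exact ⟨x₁, hxsup, by rw [h]; exact hx₁z, by rw [h']; exact hx₁a⟩
  · rcases hV v hv with h' | h' | h' | h'
    · exact absurd h' hv1
    · exact ⟨x₁ * y₁ * x₁, Subgroup.mul_mem _ (Subgroup.mul_mem _ hxsup hysup) hxsup,
        by rw [h]; exact c3z, by rw [h']; exact c3a⟩
    · exact absurd (h.trans h'.symm) huv
    · exact ⟨x₁ * y₁, Subgroup.mul_mem _ hxsup hysup, by rw [h]; exact c1z, by rw [h']; exact c1a⟩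
  · rcases hV v hv with h' | h' | h' | h'
    · exact absurd h' hv1
    · exact ⟨y₁ * x₁, Subgroup.mul_mem _ hysup hxsup, by rw [h]; exact c2z, by rw [h']; exact c2a⟩
    · exact ⟨y₁, hysup, by rw [h]; exact hy₁z, by rw [h']; exact hy₁a⟩
    · exact absurd (h.trans h'.symm) huv

end Cfsg.Agent.Lib.Helper29.SympConj
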